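import Cfsg.Agent.H46.Cov.Psl

/-!
# `PSp_4(q)`, `q ≥ 5` odd, is not the union of the conjugates of two proper subgroups (helper46, for S2499)
-/

set_option autoImplicit false
set_option linter.unusedSectionVars false

namespace Cfsg.Agent.H46.Cov

open Module Cfsg Cfsg.Geo Cfsg.Agent.H884.El Matrix
open Cfsg.Agent.H262.El (pre pre_le pre_ne scalars_le_pre mem_pre spToGL_injective two_le_of_symp)
open Cfsg.Agent.ClassicalGeometry.SympBasic Cfsg.Agent.H876 Cfsg.Agent.H931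
open Cfsg.Agent.H909.Sp4List Cfsg.Agent.H909.Sp4Geom Cfsg.Agent.H909.Sp4Arith
open Cfsg.Agent.H374.SpFour Cfsg.Agent.H374.Quad Cfsg.Agent.H901.SaxSp
open Cfsg.Agent.H278.Cov
open scoped MatrixGroups Matrix

variable {F : Type} [Field F] [Fintype F]

/-! ### arithmetic -/

theorem mod_three {q : ℕ} : ¬ 3 ∣ q ^ 2 + 1 := by
  intro h
  have h1 : (q ^ 2 + 1) % 3 = 0 := Nat.mod_eq_zero_of_dvd h
  have h2 : q % 3 = 0 ∨ q % 3 = 1 ∨ q % 3 = 2 := by omega
  rcases h2 with h2 | h2 | h2 <;> simp [Nat.pow_mod, Nat.add_mod, h2] at h1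

/-- `(q² + 1) / 2` is odd and prime to `3` -/
theorem half_le {q N a b : ℕ} (hq : Odd q) (hN : q ^ 2 + 1 = 2 * N) (hd : N ∣ 2 ^ a * 3 ^ b * 5) : N ≤ 5 := by
  have h2 : Nat.Coprime N 2 := by
    rw [Nat.coprime_comm, Nat.Prime.coprime_iff_not_dvd Nat.prime_two]
    rintro ⟨c, hc⟩
    obtain ⟨k, hk⟩ := hq
    have h1 : q ^ 2 = 4 * (k ^ 2 + k) + 1 := by rw [hk]; ring
    omega
  have h3 : Nat.Coprime N 3 := by
    rw [Nat.coprime_comm, Nat.Prime.coprime_iff_not_dvd Nat.prime_three]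
    intro h
    apply mod_three (q := q)
    rw [hN]
    exact h.mul_left 2
  have h4 : Nat.Coprime N (2 ^ a * 3 ^ b) := (h2.pow_right a).mul_right (h3.pow_right b)
  exact Nat.le_of_dvd (by norm_num) (h4.dvd_of_dvd_mul_left hd)

/-! ### `H` is `Sp_2(q²).2` -/

/-- **a maximal subgroup containing an element of order `(q² + 1) / 2` is of type `Sp_2(q²).2`** -/
theorem t4_of_order (hodd : Odd (Fintype.card F)) (h5 : 5 ≤ Fintype.card F) {M : Subgroup (PSp 2 F)}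
    (hM : IsCoatom M) {N : ℕ} (hN : Fintype.card F ^ 2 + 1 = 2 * N) (hNM : N ∣ Nat.card M) : T4 (pre M) := by
  classical
  have h2F : (2 : F) ≠ 0 := Cfsg.Agent.H909.Sp4Geom.two_ne hodd
  have hq := one_lt_q F
  have hc : Nat.card F = Fintype.card F := Nat.card_eq_fintype_card
  obtain ⟨p, hpchar⟩ : ∃ p, CharP F p := CharP.exists F
  have hp : p.Prime := CharP.char_is_prime F p
  have hpf : Fact p.Prime := ⟨hp⟩
  obtain ⟨n, hn1, hn⟩ : ∃ n : ℕ, 1 ≤ n ∧ Fintype.card F = p ^ n := by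
    obtain ⟨n, -, hn⟩ := FiniteField.card F p
    exact ⟨n, n.pos, hn⟩
  have hp2 : p ≠ 2 := by
    rintro rfl
    rw [hn] at hodd
    exact (Nat.not_even_iff_odd.2 hodd) (Even.pow_of_ne_zero even_two (by omega))
  have hp3 : 3 ≤ p := by have := hp.two_le; omega
  have hpn : Nat.card F = p ^ n := by rw [hc, hn]
  have hN13 : 13 ≤ N := by
    have : 5 ^ 2 ≤ Fintype.card F ^ 2 := Nat.pow_le_pow_left h5 2
    omega
  have hNp : N ∣ Nat.card (pre M) := hNM.trans (card_dvd_pre M)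
  -- the prime
  obtain ⟨r₀, hr₀⟩ : ∃ r, PP p (n * 4) r := exists_pp hp.two_le (by omega) (by omega)
  have hr₀q : PP (Nat.card F) 4 r₀ := by rw [hpn]; exact hr₀.of_pow hn1
  have hlt := hr₀.lt (by omega)
  have h0 : r₀ ∣ Nat.card (pre M) := by
    refine dvd_trans ?_ hNp
    have h1 : r₀ ∣ Nat.card F ^ 4 - 1 := (hr₀q.dvd_iff hq.le 4).2 dvd_rfl
    have h2 : ¬ r₀ ∣ Nat.card F ^ 2 - 1 := by
      rw [hr₀q.dvd_iff hq.le]
      decide
    have h3 : Nat.card F ^ 4 - 1 = (Nat.card F ^ 2 - 1) * (Nat.card F ^ 2 + 1) := by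
      have := Nat.sq_sub_sq (Nat.card F ^ 2) 1
      rw [one_pow, ← pow_mul] at this
      rw [this, mul_comm]
    rw [h3] at h1
    have h4 := (hr₀q.prime.dvd_mul.1 h1).resolve_left h2
    rw [hc, hN] at h4
    rcases hr₀q.prime.dvd_mul.1 h4 with h | h
    · have := Nat.le_of_dvd (by norm_num) h
      omega
    · exact h
  have hmax := isMaximalIn_pre hM
  rcases list hodd (res88 hodd) hmax with h | h | h | h | h | h | h | h
  · -- totally isotropic subspaces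
    exfalso
    obtain ⟨y, hyH, hyr, hy1⟩ := exists_elt' hr₀q.prime h0
    obtain ⟨W, hW0, hW, hWe⟩ := h
    rw [hWe] at hyH
    exact Cfsg.Agent.H262.El.not_mem_subspaceStabilizer_of_irr
      (Cfsg.Agent.H262.El.irr_of_od (by
        rw [← hc]; exact PP.od hr₀q (by norm_num)) hyr hy1)
      hW0 (Cfsg.Agent.H262.El.totallySingular_ne_top (by norm_num) hW) hyH.1
  · exfalso
    rw [card_of_T2 h2F h, a2] at h0
    exact PP.false_of_dvd (a := 1) (b := 1) (c := 1) (d := 2) hr₀q hq.le (by simpa using h0)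
      (fun h => hr₀q.prime.one_lt.ne' (Nat.dvd_one.1 h))
  · exfalso
    rw [card_of_T3 h2F h, a3] at h0
    refine PP.false_of_dvd (a := 1) (b := 1) (c := 2) (d := 1) hr₀q hq.le (h0.trans ?_)
      (fun h => hr₀q.prime.one_lt.ne' (Nat.dvd_one.1 h))
    have h1 : Nat.card F - 1 ∣ Nat.card F ^ 2 - 1 := by
      have := Nat.sub_dvd_pow_sub_pow (Nat.card F) 1 2
      rwa [one_pow] at this
    rw [mul_one, pow_one, pow_one, mul_assoc (Nat.card F), pow_two (Nat.card F ^ 2 - 1)]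
    exact Nat.mul_dvd_mul_left _ (Nat.mul_dvd_mul_left _ (Nat.mul_dvd_mul_right h1 _))
  · exact h
  · exfalso
    rw [card_of_T5 h2F h, a5] at h0
    refine PP.false_of_dvd (a := 1) (b := 1) (c := 2) (d := 1) hr₀q hq.le (h0.trans ?_)
      (fun h => hr₀q.prime.one_lt.ne' (Nat.dvd_one.1 h))
    have h1 : Nat.card F + 1 ∣ Nat.card F ^ 2 - 1 := by
      refine ⟨Nat.card F - 1, ?_⟩
      have := Nat.sq_sub_sq (Nat.card F) 1
      rwa [one_pow] at this
    rw [mul_one, pow_one, pow_one, mul_assoc (Nat.card F), pow_two (Nat.card F ^ 2 - 1)]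
    exact Nat.mul_dvd_mul_left _ (Nat.mul_dvd_mul_left _ (Nat.mul_dvd_mul_right h1 _))
  · -- subfields
    exfalso
    obtain ⟨F₀, s, P, ζ, hs, hcard, -, -, hMe⟩ := h
    exact kill_subfield (H := pre M) (hMe.le.trans inf_le_left) hs (by rw [hc]; exact hcard) hp hpn hr₀
      (by decide) (by norm_num) h0
  · -- `2^{1+4}`
    exfalso
    have h7 : Nat.card (pre M) ∣ 3840 := Cfsg.Agent.H97.Sp4Ext.card_T7_dvd h
    have := half_le (a := 8) (b := 1) hodd hN ((hNp.trans h7).trans (by norm_num))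
    omega
  · exfalso
    obtain ⟨P, p', hcore, hp', hchar, h | h | h⟩ := h
    · obtain ⟨⟨e⟩, -⟩ := h
      have h7 := Cfsg.Agent.H753.ResCard.card_A6 hmax.1.le hcore e
      have := half_le (a := 6) (b := 2) hodd hN ((hNp.trans h7).trans (by norm_num))
      omega
    · obtain ⟨⟨e⟩, h1⟩ := h
      have h7 := Cfsg.Agent.H753.ResCard.card_A7 hmax.1.le hcore e
      have h25 : N = 25 := by
        rw [h1] at hN
        omega
      rw [h25] at hNp
      exact absurd (hNp.trans h7) (by norm_num)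
    · obtain ⟨⟨e⟩, h5, h7⟩ := h
      have h8 := Cfsg.Agent.H753.ResCard.card_L2 hp hn hodd (by omega) hmax.1.le hcore e
      refine PP.false_of_dvd (a := n) (b := 1) (c := 1) (d := 1) hr₀q hq.le ?_ ?_
      · simpa using h0.trans h8
      · intro h
        have := Nat.le_of_dvd hn1 h
        omega

/-! ### the test elements -/

/-- `C ⊕ B` -/
def eb (τ : F) (B : Matrix (Fin 2) (Fin 2) F) (hB : B.det = 1) : Matrix.symplecticGroup (Fin 2) F :=
  ⟨bl (cm τ) B, bl_mem (cm_det τ) hB⟩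

def er (F : Type) [Field F] : Matrix.symplecticGroup (Fin 2) F := ⟨reg F, reg_mem⟩

def eg (τ : F) : Matrix.symplecticGroup (Fin 2) F := ⟨gm τ, gm_mem τ⟩

theorem not_av_pre {x : Matrix.symplecticGroup (Fin 2) F} {M : Subgroup (PSp 2 F)}
    (h : ¬ Av (QuotientGroup.mk x : PSp 2 F) M) :
    ∃ a : Matrix.symplecticGroup (Fin 2) F, spToGL 2 F a * spToGL 2 F x * (spToGL 2 F a)⁻¹ ∈ pre M := by
  obtain ⟨g, hg⟩ := not_av h
  obtain ⟨a, rfl⟩ := QuotientGroup.mk_surjective g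
  refine ⟨a, ?_⟩
  rw [← map_inv, ← map_mul, ← map_mul, mem_pre]
  exact hg

/-- elements with a line avoid `Sp_2(q²).2` -/
theorem av_of_line {x : Matrix.symplecticGroup (Fin 2) F} {c : F} (hx : Line (spToGL 2 F x) c)
    {M : Subgroup (PSp 2 F)} (hM : T4 (pre M)) : Av (QuotientGroup.mk x : PSp 2 F) M := by
  by_contra hcon
  obtain ⟨a, ha⟩ := not_av_pre hcon
  obtain ⟨K, hK, -, -, hMe⟩ := hM
  rw [hMe] at ha
  exact (hx.conj _).not_norm hK ha.1

/-- `g` avoids `Sp_2(q²).2` -/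
theorem av_eg (hodd : Odd (Fintype.card F)) (h5 : 5 ≤ Fintype.card F) {τ : F} (h : Tau τ)
    {M : Subgroup (PSp 2 F)} (hM : T4 (pre M)) : Av (QuotientGroup.mk (eg τ) : PSp 2 F) M := by
  by_contra hcon
  obtain ⟨a, ha⟩ := not_av_pre hcon
  have hsp := pre_le M ha
  obtain ⟨K, hK, hsa, -, hMe⟩ := hM
  rw [hMe] at ha
  exact gm_not_norm hodd h5 h hK hsa hsp (a := spToGL 2 F a) rfl ha.1

/-! ### conjugates -/

theorem inv_mul_val (a : GL I4 F) : ((a⁻¹ : GL I4 F) : Matrix I4 I4 F) * (a : Matrix I4 I4 F) = 1 := by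
  rw [← Units.val_mul, inv_mul_cancel, Units.val_one]

theorem mul_inv_val (a : GL I4 F) : (a : Matrix I4 I4 F) * ((a⁻¹ : GL I4 F) : Matrix I4 I4 F) = 1 := by
  rw [← Units.val_mul, mul_inv_cancel, Units.val_one]

theorem conj_mul_conj (a : GL I4 F) (X Y : Matrix I4 I4 F) :
    ((a : Matrix I4 I4 F) * X * ((a⁻¹ : GL I4 F) : Matrix I4 I4 F)) *
      ((a : Matrix I4 I4 F) * Y * ((a⁻¹ : GL I4 F) : Matrix I4 I4 F)) =
    (a : Matrix I4 I4 F) * (X * Y) * ((a⁻¹ : GL I4 F) : Matrix I4 I4 F) := by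
  simp only [Matrix.mul_assoc]
  rw [← Matrix.mul_assoc _ (a : Matrix I4 I4 F), inv_mul_val, Matrix.one_mul]

theorem conj_matrix_pow (a : GL I4 F) (X : Matrix I4 I4 F) (k : ℕ) :
    ((a : Matrix I4 I4 F) * X * ((a⁻¹ : GL I4 F) : Matrix I4 I4 F)) ^ k =
      (a : Matrix I4 I4 F) * X ^ k * ((a⁻¹ : GL I4 F) : Matrix I4 I4 F) := by
  induction k with
  | zero => rw [pow_zero, pow_zero, mul_one, mul_inv_val]
  | succ k ih => rw [pow_succ, ih, conj_mul_conj, ← pow_succ]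

theorem reg_nil : (reg F ^ 2 - 1) ^ 4 = 0 := by
  have h1 : reg F ^ 2 - 1 = (reg F - 1) * (reg F + 1) := by
    rw [sub_mul, mul_add, mul_one, one_mul, pow_two]
    abel
  have h2 : Commute (reg F - 1) (reg F + 1) := by
    change (reg F - 1) * (reg F + 1) = (reg F + 1) * (reg F - 1)
    rw [sub_mul, mul_add, mul_one, one_mul, add_mul, mul_sub, mul_one, one_mul]
    abel
  rw [h1, h2.mul_pow, reg_four, zero_mul]

theorem conj_reg_nil (a : GL I4 F) {z : GL I4 F}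
    (hz : (z : Matrix I4 I4 F) = (a : Matrix I4 I4 F) * reg F * ((a⁻¹ : GL I4 F) : Matrix I4 I4 F)) :
    ((z : Matrix I4 I4 F) ^ 2 - 1) ^ 4 = 0 := by
  have h1 : (z : Matrix I4 I4 F) ^ 2 - 1 =
      (a : Matrix I4 I4 F) * (reg F ^ 2 - 1) * ((a⁻¹ : GL I4 F) : Matrix I4 I4 F) := by
    rw [hz, conj_matrix_pow, mul_sub, sub_mul, mul_one, mul_inv_val]
  rw [h1, conj_matrix_pow, reg_nil, mul_zero, zero_mul]

theorem er_order {p : ℕ} [hp : Fact p.Prime] [CharP F p] (h5 : 5 ≤ p) : orderOf (spToGL 2 F (er F)) = p := by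
  apply orderOf_eq_prime
  · apply Units.ext
    rw [Units.val_pow_eq_pow_val, Units.val_one]
    change reg F ^ p = 1
    have hchar : CharP (Matrix I4 I4 F) p := inferInstance
    have h1 : (reg F - 1) ^ p = reg F ^ p - 1 := by
      rw [sub_pow_char_of_commute _ (Commute.one_right _), one_pow]
    have h2 : (reg F - 1) ^ p = 0 := pow_eq_zero_of_le (by omega : 4 ≤ p) reg_four
    rw [h2] at h1
    exact (sub_eq_zero.1 h1.symm)
  · intro h
    have h1 : reg F = 1 := congrArg Units.val h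
    have h2 := congrFun (congrFun h1 (Sum.inl 0)) (Sum.inl 1)
    simp [reg] at h2

/-- the transvection `1 ⊕ J₂` -/
theorem tr_order {p : ℕ} [hp : Fact p.Prime] [CharP F p] {x : GL I4 F}
    (hx : (x : Matrix I4 I4 F) = bl 1 j2) : orderOf x = p := by
  apply orderOf_eq_prime
  · apply Units.ext
    rw [Units.val_pow_eq_pow_val, Units.val_one, hx, bl_pow, one_pow, j2_pow, CharP.cast_eq_zero, ← bl_one]
    congr 1
    ext i j
    fin_cases i <;> fin_cases j <;> rfl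
  · intro h
    rw [h, Units.val_one, ← bl_one] at hx
    have h2 := p2_bl (1 : Matrix (Fin 2) (Fin 2) F) j2 (jn 0 ![0, 1])
    rw [← hx, p2_bl, p2_jn, Matrix.one_mulVec] at h2
    have h3 := congrFun h2 0
    simp [j2, Matrix.mulVec, dotProduct, Fin.sum_univ_two] at h3

/-- **the Sylow argument** -/
theorem kill_sylow {τ : F} (h : Tau τ) (h2F : (2 : F) ≠ 0) {p n : ℕ} [hp : Fact p.Prime] [CharP F p] (h5 : 5 ≤ p)
    (hn1 : 1 ≤ n) (hF : Fintype.card F = p ^ n)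
    {G₀ : Subgroup (GL I4 F)} (hd : ¬ p ^ 2 ∣ Nat.card G₀) {a b : GL I4 F}
    (h1 : a * spToGL 2 F (eb τ j2 j2_det) * a⁻¹ ∈ G₀) (h3 : b * spToGL 2 F (er F) * b⁻¹ ∈ G₀) : False := by
  classical
  set q := Fintype.card F with hq
  have hq0 : (q : F) = 0 := by
    rw [CharP.cast_eq_zero_iff F p, hF]
    exact dvd_pow_self p (by omega)
  set t₀ : GL I4 F := spToGL 2 F (eb τ j2 j2_det) ^ (q + 1) with ht₀
  have ht₀v : (t₀ : Matrix I4 I4 F) = bl 1 j2 := by
    rw [ht₀, Units.val_pow_eq_pow_val]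
    change bl (cm τ) j2 ^ (q + 1) = _
    rw [bl_pow, cm_pow h, j2_pow, Nat.cast_add, hq0, Nat.cast_one, zero_add]
    rfl
  have htmem : a * t₀ * a⁻¹ ∈ G₀ := by
    rw [ht₀, ← conj_pow]
    exact G₀.pow_mem h1 _
  have hto : orderOf (a * t₀ * a⁻¹) = p := by
    have h4 : orderOf (a * t₀ * a⁻¹) = orderOf t₀ :=
      orderOf_injective (MulAut.conj a).toMonoidHom (MulAut.conj a).injective t₀
    rw [h4, tr_order ht₀v]
  have hbo : orderOf (b * spToGL 2 F (er F) * b⁻¹) = p := by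
    have h4 : orderOf (b * spToGL 2 F (er F) * b⁻¹) = orderOf (spToGL 2 F (er F)) :=
      orderOf_injective (MulAut.conj b).toMonoidHom (MulAut.conj b).injective _
    rw [h4, er_order h5]
  have hfin : Finite G₀ := inferInstance
  have hfix : ∀ c : Fin 2 → F, ((a * t₀ * a⁻¹ : GL I4 F) : Matrix I4 I4 F) *ᵥ ((a : Matrix I4 I4 F) *ᵥ jn c 0) =
      (a : Matrix I4 I4 F) *ᵥ jn c 0 := by
    intro c
    rw [Units.val_mul, Units.val_mul, Matrix.mulVec_mulVec, Matrix.mul_assoc, inv_mul_val, Matrix.mul_one,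
      ht₀v, ← Matrix.mulVec_mulVec]
    congr 1
    apply p_ext
    · rw [p1_bl, Matrix.one_mulVec]
    · rw [p2_bl, p2_jn, Matrix.mulVec_zero]
  refine sylow_kill hp.out hd htmem h3 hto hbo (hfix ![1, 0]) (hfix ![0, 1]) ?_
    ((line_reg h2F (z := spToGL 2 F (er F)) rfl).conj b)
  rw [LinearIndependent.pair_iff]
  intro s t hst
  rw [← Matrix.mulVec_smul, ← Matrix.mulVec_smul, ← Matrix.mulVec_add] at hst
  have h4 := congrArg (fun x => ((a⁻¹ : GL I4 F) : Matrix I4 I4 F) *ᵥ x) hst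
  simp only [Matrix.mulVec_mulVec, inv_mul_val, Matrix.one_mulVec, Matrix.mulVec_zero] at h4
  have h5 := congrArg p1 h4
  rw [p1_add, p1_smul, p1_smul, p1_jn, p1_jn, p1_zero] at h5
  have h6 := congrFun h5 0
  have h7 := congrFun h5 1
  simp at h6 h7
  exact ⟨h6, h7⟩

/-- **totally singular subspaces** -/
theorem kill_T1 {τ : F} (h : Tau τ) {W : Submodule F (I4 → F)} (hW0 : W ≠ ⊥)
    (hW : IsTotallySingularFor (sympForm 2 F) W) {a b : Matrix.symplecticGroup (Fin 2) F}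
    (h1 : spToGL 2 F a * spToGL 2 F (eb τ j2 j2_det) * (spToGL 2 F a)⁻¹ ∈ subspaceStabilizer W)
    (hg : spToGL 2 F b * spToGL 2 F (eg τ) * (spToGL 2 F b)⁻¹ ∈ subspaceStabilizer W) : False := by
  set A : GL I4 F := spToGL 2 F a with hA
  set B : GL I4 F := spToGL 2 F b with hB
  have hiso : ∀ u v, sympForm 2 F ((A : Matrix I4 I4 F) *ᵥ u) ((A : Matrix I4 I4 F) *ᵥ v) = sympForm 2 F u v :=
    fun u v => spToGL_mem a u v
  set W' : Submodule F (I4 → F) := W.comap (Matrix.toLin' (A : Matrix I4 I4 F)) with hW'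
  have hmem : ∀ v, v ∈ W' ↔ (A : Matrix I4 I4 F) *ᵥ v ∈ W := by
    intro v
    rw [hW', Submodule.mem_comap, Matrix.toLin'_apply]
  have hts : IsTotallySingularFor (sympForm 2 F) W' := by
    intro u hu v hv
    rw [← hiso]
    exact hW _ ((hmem u).1 hu) _ ((hmem v).1 hv)
  have hinv : ∀ v ∈ W', bl (cm τ) j2 *ᵥ v ∈ W' := by
    intro v hv
    rw [hmem] at hv ⊢
    have h2 := (h1 ((A : Matrix I4 I4 F) *ᵥ v)).1 hv
    change ((A * spToGL 2 F (eb τ j2 j2_det) * A⁻¹ : GL I4 F) : Matrix I4 I4 F) *ᵥ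
      ((A : Matrix I4 I4 F) *ᵥ v) ∈ W at h2
    rw [Units.val_mul, Units.val_mul, Matrix.mulVec_mulVec, Matrix.mul_assoc, inv_mul_val, Matrix.mul_one,
      ← Matrix.mulVec_mulVec] at h2
    exact h2
  obtain ⟨w, hw, hw0⟩ := Submodule.exists_mem_ne_zero_of_ne_bot hW0
  -- every element of `W` is a multiple of `w`
  have hAA : ∀ v, (A : Matrix I4 I4 F) *ᵥ (((A⁻¹ : GL I4 F) : Matrix I4 I4 F) *ᵥ v) = v := by
    intro v
    rw [Matrix.mulVec_mulVec, mul_inv_val, Matrix.one_mulVec]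
  have hline : ∀ v ∈ W, ∃ d : F, v = d • w := by
    intro v hv
    have m1 : ((A⁻¹ : GL I4 F) : Matrix I4 I4 F) *ᵥ w ∈ W' := by rw [hmem, hAA]; exact hw
    have m2 : ((A⁻¹ : GL I4 F) : Matrix I4 I4 F) *ᵥ v ∈ W' := by rw [hmem, hAA]; exact hv
    obtain ⟨d, hd⟩ := T1_dep h hts hinv m1 (fun h0 => hw0 (by rw [← hAA w, h0, Matrix.mulVec_zero])) m2
    refine ⟨d, ?_⟩
    rw [← hAA v, hd, Matrix.mulVec_smul, hAA]
  set Z : Matrix I4 I4 F := ((B * spToGL 2 F (eg τ) * B⁻¹ : GL I4 F) : Matrix I4 I4 F) with hZ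
  obtain ⟨d, hd⟩ := hline _ ((hg w).1 hw)
  have hd' : Z *ᵥ w = d • w := hd
  have hZe : Z = (B : Matrix I4 I4 F) * gm τ * ((B⁻¹ : GL I4 F) : Matrix I4 I4 F) := rfl
  have hpoly : (Z ^ 2 - τ • Z + 1) ^ 2 = 0 := by
    have h3 : Z ^ 2 - τ • Z + 1 = (B : Matrix I4 I4 F) * (gm τ ^ 2 - τ • gm τ + 1) *
        ((B⁻¹ : GL I4 F) : Matrix I4 I4 F) := by
      rw [hZe, conj_matrix_pow, mul_add, mul_sub, add_mul, sub_mul, mul_one, mul_inv_val, Matrix.mul_smul,
        Matrix.smul_mul]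
    rw [h3, conj_matrix_pow, gm_poly_sq, mul_zero, zero_mul]
  have hev : (Z ^ 2 - τ • Z + 1) *ᵥ w = (d ^ 2 - τ * d + 1) • w := by
    rw [Matrix.add_mulVec, Matrix.sub_mulVec, pow_two, ← Matrix.mulVec_mulVec, hd', Matrix.mulVec_smul, hd',
      Matrix.smul_mulVec, hd', Matrix.one_mulVec, smul_smul, smul_smul, add_smul, sub_smul, one_smul, pow_two]
  have h4 : ((Z ^ 2 - τ • Z + 1) ^ 2) *ᵥ w = (d ^ 2 - τ * d + 1) ^ 2 • w := by
    rw [pow_two, ← Matrix.mulVec_mulVec, hev, Matrix.mulVec_smul, hev, smul_smul, pow_two (d ^ 2 - τ * d + 1)]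
  rw [hpoly, Matrix.zero_mulVec] at h4
  rcases smul_eq_zero.1 h4.symm with h5 | h5
  · exact h.irr d (pow_eq_zero_iff two_ne_zero |>.1 h5)
  · exact hw0 h5

/-- **subfield groups** -/
theorem kill_T6 {τ : F} (h : Tau τ) (h5 : 5 ≤ Fintype.card F) (h2F : (2 : F) ≠ 0) {F₀ : Subfield F} {r : ℕ}
    (hr : r.Prime) (hcard : Fintype.card F = Nat.card F₀ ^ r) {P a : GL I4 F}
    (h1 : a * spToGL 2 F (eb τ j2 j2_det) * a⁻¹ ∈ subfieldSubgroup F₀ P) : False := by
  have htr : ∀ x : GL I4 F, Matrix.trace ((a * x * a⁻¹ : GL I4 F) : Matrix I4 I4 F) =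
      Matrix.trace (x : Matrix I4 I4 F) := by
    intro x
    rw [Units.val_mul, Units.val_mul, Matrix.trace_mul_cycle, inv_mul_val, one_mul]
  have hτ2 : τ + 2 ≠ 0 := by
    intro h0
    apply h.irr (-1)
    linear_combination h0
  have hb : ((spToGL 2 F (eb τ j2 j2_det) : GL I4 F) : Matrix I4 I4 F) = bl (cm τ) j2 := rfl
  have hbi : (((spToGL 2 F (eb τ j2 j2_det))⁻¹ : GL I4 F) : Matrix I4 I4 F) =
      bl !![τ, 1; -1, 0] !![1, -1; 0, 1] := by
    have h3 : bl (cm τ) j2 * bl !![τ, 1; -1, 0] !![1, -1; 0, 1] = 1 := by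
      rw [bl_mul, ← bl_one]
      congr 1
      · rw [cm]
        ext i j
        fin_cases i <;> fin_cases j <;> simp [Matrix.mul_apply, Fin.sum_univ_two]
      · rw [j2]
        ext i j
        fin_cases i <;> fin_cases j <;> simp [Matrix.mul_apply, Fin.sum_univ_two]
    have h4 := congrArg (fun x => (((spToGL 2 F (eb τ j2 j2_det))⁻¹ : GL I4 F) : Matrix I4 I4 F) * x) h3
    simp only [mul_one] at h4
    rw [← mul_assoc, ← hb, inv_mul_val, one_mul] at h4
    exact h4.symm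
  refine not_subfield h2F (tau_ne_zero h h5) hτ2 ?_ ?_ ?_ (h.sub F₀ r hr hcard) h1
  · rw [htr, hb, trace_bl, cm, j2, Matrix.trace_fin_two_of, Matrix.trace_fin_two_of]
    ring
  · rw [show (a * spToGL 2 F (eb τ j2 j2_det) * a⁻¹)⁻¹ = a * (spToGL 2 F (eb τ j2 j2_det))⁻¹ * a⁻¹ by group, htr,
      hbi, trace_bl, Matrix.trace_fin_two_of, Matrix.trace_fin_two_of]
    ring
  · rw [← Units.val_pow_eq_pow_val, conj_pow, htr, Units.val_pow_eq_pow_val, hb, bl_pow, trace_bl, cm_sq, j2_pow,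
      Matrix.trace_sub, Matrix.trace_smul, Matrix.trace_one, cm, Matrix.trace_fin_two_of, Matrix.trace_fin_two_of,
      Fintype.card_fin, smul_eq_mul]
    push_cast
    ring

theorem exists_mu (F : Type) [Field F] [Fintype F] :
    ∃ μ : F, μ ≠ 0 ∧ ∀ k : ℕ, μ ^ k = 1 → Fintype.card F - 1 ∣ k := by
  classical
  obtain ⟨g, hg⟩ := IsCyclic.exists_generator (α := Fˣ)
  refine ⟨g, g.ne_zero, fun k hk => ?_⟩
  have h1 : orderOf g = Fintype.card F - 1 := by
    rw [orderOf_eq_card_of_forall_mem_zpowers hg, Nat.card_eq_fintype_card, Fintype.card_units]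
  rw [← h1]
  apply orderOf_dvd_of_pow_eq_one
  apply Units.ext
  rw [Units.val_pow_eq_pow_val, hk, Units.val_one]

theorem diag_det {μ : F} (hμ : μ ≠ 0) : (!![μ, 0; 0, μ⁻¹] : Matrix (Fin 2) (Fin 2) F).det = 1 := by
  rw [Matrix.det_fin_two_of, mul_inv_cancel₀ hμ]
  ring

theorem line_eb (h2F : (2 : F) ≠ 0) (h5 : 5 ≤ Fintype.card F) {τ : F} (h : Tau τ) :
    Line (spToGL 2 F (eb τ j2 j2_det)) 1 :=
  line_bl h h5 j2_det (b₀ := ![1, 0]) (fun h0 => by
    have := congrFun h0 0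
    simp at this) (line_j2 h2F).1 (line_j2 h2F).2 rfl

theorem line_ed (h7 : 7 < Fintype.card F) {τ : F} (h : Tau τ) {μ : F} (hμ0 : μ ≠ 0)
    (hμ : ∀ k : ℕ, μ ^ k = 1 → Fintype.card F - 1 ∣ k) :
    Line (spToGL 2 F (eb τ _ (diag_det hμ0))) (μ ^ 2) := by
  have h4 : μ ^ 4 ≠ 1 := by
    intro h4
    have := Nat.le_of_dvd (by norm_num) (hμ 4 h4)
    omega
  exact line_bl h (by omega) (diag_det hμ0) (b₀ := ![1, 0]) (fun h0 => by
    have := congrFun h0 0
    simp at this) (line_diag hμ0 h4).1 (line_diag hμ0 h4).2 rfl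

/-- **no maximal subgroup contains conjugates of all test elements** -/
theorem no_all (hodd : Odd (Fintype.card F)) (h5 : 5 ≤ Fintype.card F) {τ : F} (h : Tau τ) {μ : F} (hμ0 : μ ≠ 0)
    (hμ : ∀ k : ℕ, μ ^ k = 1 → Fintype.card F - 1 ∣ k) {M : Subgroup (PSp 2 F)} (hM : IsCoatom M)
    (h1 : ¬ Av (QuotientGroup.mk (eb τ j2 j2_det) : PSp 2 F) M)
    (h3 : ¬ Av (QuotientGroup.mk (er F) : PSp 2 F) M)
    (hg : ¬ Av (QuotientGroup.mk (eg τ) : PSp 2 F) M)
    (h4 : 7 < Fintype.card F → ¬ Av (QuotientGroup.mk (eb τ _ (diag_det hμ0)) : PSp 2 F) M) : False := by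
  classical
  have h2F : (2 : F) ≠ 0 := Cfsg.Agent.H909.Sp4Geom.two_ne hodd
  obtain ⟨p, hpchar⟩ : ∃ p, CharP F p := CharP.exists F
  have hp : p.Prime := CharP.char_is_prime F p
  have hpf : Fact p.Prime := ⟨hp⟩
  obtain ⟨n, hn1, hn⟩ : ∃ n : ℕ, 1 ≤ n ∧ Fintype.card F = p ^ n := by
    obtain ⟨n, -, hn⟩ := FiniteField.card F p
    exact ⟨n, n.pos, hn⟩
  obtain ⟨a1, m1⟩ := not_av_pre h1
  obtain ⟨a3, m3⟩ := not_av_pre h3
  obtain ⟨ag, mg⟩ := not_av_pre hg
  have hmax := isMaximalIn_pre hM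
  have hline1 := (line_eb h2F h5 h).conj (spToGL 2 F a1)
  have hline3 := (line_reg h2F (z := spToGL 2 F (er F)) rfl).conj (spToGL 2 F a3)
  have hnil3 := conj_reg_nil (F := F) (spToGL 2 F a3)
    (z := spToGL 2 F a3 * spToGL 2 F (er F) * (spToGL 2 F a3)⁻¹) rfl
  have hsyl : 5 ≤ p → ¬ p ^ 2 ∣ Nat.card (pre M) → False := fun h5p hd =>
    kill_sylow h h2F h5p hn1 hn hd m1 m3
  have hpd : 5 ≤ p → p ∣ Nat.card (pre M) := by
    intro h5p
    have h6 : orderOf (spToGL 2 F a3 * spToGL 2 F (er F) * (spToGL 2 F a3)⁻¹) = p := by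
      have h7 : orderOf (spToGL 2 F a3 * spToGL 2 F (er F) * (spToGL 2 F a3)⁻¹) = orderOf (spToGL 2 F (er F)) :=
        orderOf_injective (MulAut.conj (spToGL 2 F a3)).toMonoidHom (MulAut.conj (spToGL 2 F a3)).injective _
      rw [h7, er_order h5p]
    rw [← h6, ← Subgroup.orderOf_mk _ m3]
    exact orderOf_dvd_natCard _
  have hfive : ∀ a b : ℕ, 5 ≤ p → p ∣ 2 ^ a * 3 ^ b * 5 → p = 5 := by
    intro a b h5p hd
    rcases (hp.dvd_mul).1 hd with h | h
    · rcases (hp.dvd_mul).1 h with h | h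
      · have := Nat.le_of_dvd (by norm_num) (hp.dvd_of_dvd_pow h)
        omega
      · have := Nat.le_of_dvd (by norm_num) (hp.dvd_of_dvd_pow h)
        omega
    · have := Nat.le_of_dvd (by norm_num) h
      omega
  rcases list hodd (res88 hodd) hmax with h | h | h | h | h | h | h | h
  · obtain ⟨W, hW0, hW, hWe⟩ := h
    rw [hWe] at m1 mg
    exact kill_T1 ‹Tau τ› hW0 hW m1.1 mg.1
  · obtain ⟨D, hD, hMe⟩ := h
    rw [hMe] at m3
    exact hline3.not_decomp hnil3 hD.decomp m3.1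
  · obtain ⟨-, D, hD, -, hMe⟩ := h
    rw [hMe] at m3
    exact hline3.not_decomp hnil3 hD m3.1
  · obtain ⟨K, hK, -, -, hMe⟩ := h
    rw [hMe] at m1
    exact hline1.not_norm hK m1.1
  · obtain ⟨-, K, hK, -, -, hMe⟩ := h
    rw [hMe] at m1
    exact hline1.not_norm hK m1.1
  · obtain ⟨F₀, s, P, ζ, hs, hcard, -, -, hMe⟩ := h
    rw [hMe] at m1
    exact kill_T6 ‹Tau τ› h5 h2F hs hcard m1.1
  · -- `2^{1+4}`
    have hprime := prime_of_T7 h
    have hn' : Fintype.card F = p := by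
      have h6 : p ∣ Nat.card F := by rw [Nat.card_eq_fintype_card, hn]; exact dvd_pow_self p (by omega)
      rw [← Nat.card_eq_fintype_card]
      exact ((Nat.prime_dvd_prime_iff_eq hp hprime).1 h6).symm
    have h7 : Nat.card (pre M) ∣ 3840 := Cfsg.Agent.H97.Sp4Ext.card_T7_dvd h
    have h5p : 5 ≤ p := by omega
    have hp5 : p = 5 := hfive 8 1 h5p (((hpd h5p).trans h7).trans (by norm_num))
    refine hsyl h5p fun hd => ?_
    rw [hp5] at hd
    exact absurd (hd.trans h7) (by norm_num)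
  · obtain ⟨P, p', hcore, hp', hchar, h | h | h⟩ := h
    · obtain ⟨⟨e⟩, h6, h5p, -⟩ := h
      have hpp : p' = p := CharP.eq F hchar hpchar
      subst hpp
      have h7 := Cfsg.Agent.H753.ResCard.card_A6 hmax.1.le hcore e
      have hp5 : p' = 5 := hfive 6 2 h5p (((hpd h5p).trans h7).trans (by norm_num))
      refine hsyl h5p fun hd => ?_
      rw [hp5] at hd
      exact absurd (hd.trans h7) (by norm_num)
    · obtain ⟨⟨e⟩, h6⟩ := h
      have h7 := Cfsg.Agent.H753.ResCard.card_A7 hmax.1.le hcore e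
      have hp7 : p = 7 := by
        have h8 : p ∣ 7 := by rw [← h6, hn]; exact dvd_pow_self p (by omega)
        exact (Nat.prime_dvd_prime_iff_eq hp (by norm_num)).1 h8
      refine hsyl (by omega) fun hd => ?_
      rw [hp7] at hd
      exact absurd (hd.trans h7) (by norm_num)
    · obtain ⟨⟨e⟩, h5p, h7⟩ := h
      have hpp : p' = p := CharP.eq F hchar hpchar
      subst hpp
      obtain ⟨a4, m4⟩ := not_av_pre (h4 h7)
      exact l2_kill h2F hn1 hn h5p h7 ‹Tau τ› hμ hμ0 hcore e m4 rfl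

/-- **`PSp_4(q)`, `q ≥ 5` odd, is not the union of the conjugates of two proper subgroups.** -/
theorem noTwo_psp_two {F : Type} [Field F] [Fintype F] (hodd : Odd (Fintype.card F)) (h5 : 5 ≤ Fintype.card F) :
    NoTwo (PSp 2 F) := by
  classical
  have h2F : (2 : F) ≠ 0 := Cfsg.Agent.H909.Sp4Geom.two_ne hodd
  obtain ⟨τ, hτ⟩ := exists_tau h5
  obtain ⟨μ, hμ0, hμ⟩ := exists_mu F
  obtain ⟨p, hpchar⟩ : ∃ p, CharP F p := CharP.exists F
  have hp : p.Prime := CharP.char_is_prime F p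
  have hpf : Fact p.Prime := ⟨hp⟩
  obtain ⟨n, hn1, hn⟩ : ∃ n : ℕ, 1 ≤ n ∧ Fintype.card F = p ^ n := by
    obtain ⟨n, -, hn⟩ := FiniteField.card F p
    exact ⟨n, n.pos, hn⟩
  have hspec := exists_iff (F := F) (p := p) (n := n) (by omega) hn (by rw [← hn]; omega)
  rw [← hn] at hspec
  obtain ⟨N, hN⟩ : ∃ N, Fintype.card F ^ 2 + 1 = 2 * N := by
    obtain ⟨k, hk⟩ := hodd
    exact ⟨2 * (k ^ 2 + k) + 1, by rw [hk]; ring⟩
  obtain ⟨x, hx⟩ := (hspec N).2 (by
    rw [Om, gcd_of_odd hodd, hN]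
    exact Or.inr (Or.inr (Or.inr (Or.inl (by rw [Nat.mul_div_cancel_left _ (by norm_num)])))))
  -- the key step
  have key : ∀ H K : Subgroup (PSp 2 F), IsCoatom H → IsCoatom K → ¬ Av x H → ∃ y : PSp 2 F, Av y H ∧ Av y K := by
    intro H K hH hK hxH
    have hNH : N ∣ Nat.card H := by
      by_contra hcon
      exact hxH (av_of_card (by rw [hx]; exact hcon))
    have hT4 := t4_of_order hodd h5 hH hN hNH
    by_contra hcon
    have hAv : ∀ y : PSp 2 F, Av y H → ¬ Av y K := fun y h1 h2 => hcon ⟨y, h1, h2⟩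
    refine no_all hodd h5 hτ hμ0 hμ hK ?_ ?_ ?_ ?_
    · exact hAv _ (av_of_line (line_eb h2F h5 hτ) hT4)
    · exact hAv _ (av_of_line (line_reg h2F (z := spToGL 2 F (er F)) rfl) hT4)
    · exact hAv _ (av_eg hodd h5 hτ hT4)
    · intro h7
      exact hAv _ (av_of_line (line_ed h7 hτ hμ0 hμ) hT4)
  apply noTwo_of_coatom
  intro H K hH hK
  by_cases h1 : Av x H
  · by_cases h2 : Av x K
    · exact ⟨x, h1, h2⟩
    · obtain ⟨y, hy1, hy2⟩ := key K H hK hH h2
      exact ⟨y, hy2, hy1⟩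
  · exact key H K hH hK h1

end Cfsg.Agent.H46.Cov
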